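import Cfsg.Agent.H351.F4Out
import Cfsg.Agent.H628.Exc.Elem
import Cfsg.Agent.H129.CycT
import Cfsg.Agent.H378.RootTor
import Cfsg.Agent.H378.TorFin
import Cfsg.Agent.S1025

/-!
# Elements of order `4 r` in `F₄(q)`, `q` even, `r` a prime divisor of `q² + q + 1` (helper351, for S2499)

`s` of order `r` in the subsystem subgroup `A₂` of the short roots, `v` of order 4 in the `A₂` of the long roots.
-/

set_option autoImplicit false
set_option linter.unusedSectionVars false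

namespace Cfsg.Agent.H351.CovF4.EltY

open CoxeterSystem Cfsg Cfsg.Lie Cfsg.Lie.ChevalleyDatum
open Cfsg.Agent.ChevalleyStructure Cfsg.Agent.ChevalleyStructure.Elts Cfsg.Agent.ChevalleyStructure.CoxeterGeom
  Cfsg.Agent.ChevalleyStructure.CoxeterGeomTypes Cfsg.Agent.ChevalleyStructure.NPerm
open Cfsg.Agent.Tits.Roots Cfsg.Agent.Tits.Core Cfsg.Agent.Nodes.Reps Cfsg.Agent.Nodes.BNOf
  Cfsg.Agent.Nodes.RGDChev Cfsg.Agent.Nodes.Bruhat
open Cfsg.Agent.KFacts.RgdField Cfsg.Agent.KFacts.RgdChevCoord Cfsg.Agent.BpExc.TorCent Cfsg.Agent.BpExc.TorChev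
open Cfsg.Agent.BpExc.Tow Cfsg.Agent.BpExc.TowChev Cfsg.Agent.BpExc.FamExt Cfsg.Agent.BpExc.FamUntw
  Cfsg.Agent.BpExc.FamInst Cfsg.Agent.BpExc.LangFr Cfsg.Agent.BpExc.FamField Cfsg.Agent.BpExc.Fr
open Cfsg.Agent.GpExc.Field (glMap emb coe_emb glMap_xG emb_injective coe_glMap)
open Cfsg.Agent.H129.TorusChar (cX cX_vec cX_one cX_inj IsMC exists_cX)
open Cfsg.Agent.H628.Exc.Func (SJ exists_fixed lin lin_apply lin_sr ev ev_apply EigOK)
open Cfsg.Agent.H628.Exc.Elem (exists_tor pow_val_ne_one CT ct_of_cX ct_of_mem_Sup)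
open Cfsg.Agent.H129.CycT (typeF4)
open Cfsg.Agent.H92.ExcSL2 (Orth4)
open Cfsg.Agent.H666.SigFr (xs coe_xs)
open Cfsg.Agent.LangThm

universe u

/-! ### the tables -/

/-- the Coxeter element of the short `A₂` -/
def L : List (Fin 4) := [0, 1]

/-- the eigenfunctional -/
def V : Fin 4 → Fin (1 + 1) → ℤ := ![![1, 2], ![-2, -1], ![2, 0], ![0, 0]]

/-- `x ^ 2 + x + 1` -/
def Phi : Fin (1 + 1) → ℤ := ![1, 1]

theorem eig : EigOK H129.DataF4.Am L id V Phi := by decide +kernel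

/-- the nodes of the short `A₂` -/
def J : Set (Fin 4) := {i | i = 0 ∨ i = 1}

theorem L_mem : ∀ i ∈ L, i ∈ J := by
  intro i hi
  have : ∀ i ∈ L, i = 0 ∨ i = 1 := by decide
  exact this i hi

theorem orth0 : ∀ j : Fin 4, (j = 0 ∨ j = 1) → Orth4 chevF4 0 (chevF4.simple j) = true := by decide +kernel
theorem orth24 : ∀ j : Fin 4, (j = 0 ∨ j = 1) → Orth4 chevF4 24 (chevF4.simple j) = true := by decide +kernel
theorem vec0 : ∑ j, vec chevF4 4 0 j • V j = 0 := by decide +kernel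
theorem vec24 : ∑ j, vec chevF4 4 24 j • V j = 0 := by decide +kernel
theorem comm0 : chevF4.commTerms 24 0 = [(1, 1, 1, 1)] ∨ chevF4.commTerms 24 0 = [(1, -1, 1, 1)] := by decide +kernel

/-! ### the closure -/

section Clo

variable {k : Type u} [Field k] [IsAlgClosed k] (hk : LocFin k) (p : ℕ) [Fact p.Prime] [CharP k p]

include hk in
theorem exists_k {m : ℕ} (hm : 0 < m) {r : ℕ} (hr : r.Prime) (hr2 : r ≠ 2) (hd : r ∣ (p ^ m) ^ 2 + p ^ m + 1) :
    ∃ y : ↥(chevF4.group k), y ^ r = 1 ∧ y ≠ 1 ∧ phi chevF4 k p m y = y ∧ CT typeF4.inList 0 y ∧ CT typeF4.inList 24 y := by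
  have hfr : Fact r.Prime := ⟨hr⟩
  have hp := typeF4
  let cs := (CoxeterMatrix.F₄).toCoxeterSystem
  have hpr : (r : k) ≠ 0 := by
    intro h0
    have h1 : p ∣ r := (CharP.cast_eq_zero_iff k p r).1 h0
    have h2 : p = r := (Nat.prime_dvd_prime_iff_eq Fact.out hr).1 h1
    have h3 : r ∣ (p ^ m) ^ 2 + p ^ m := by
      rw [← h2]
      exact dvd_add ((dvd_pow_self p hm.ne').trans (dvd_pow_self _ (by norm_num))) (dvd_pow_self p hm.ne')
    exact hr.one_lt.ne' (Nat.dvd_one.1 ((Nat.dvd_add_right h3).1 hd))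
  -- a root of unity
  have : NeZero (r : k) := ⟨hpr⟩
  obtain ⟨ζ, hζ⟩ := HasEnoughRootsOfUnity.exists_primitiveRoot k r
  have hζr : ζ ^ r = 1 := hζ.pow_eq_one
  have hζ1 : ζ ≠ 1 := hζ.ne_one hr.one_lt
  obtain ⟨z, hz, hzσ⟩ := exists_fixed hp cs hk hm (phi_isFrob p m) (phi_fr hp cs p hk m)
    (J := J) (π := id) (L := L) (fun _ => rfl) (fun _ h => h) L_mem
  have hx : ((p ^ m : ℕ) : ZMod r) ^ (1 + 1) + ev ((p ^ m : ℕ) : ZMod r) Phi = 0 := by
    have h1 := (ZMod.natCast_eq_zero_iff ((p ^ m) ^ 2 + p ^ m + 1) r).2 hd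
    rw [ev_apply]
    simp only [Phi, Fin.sum_univ_succ, Fin.sum_univ_zero]
    simp
    push_cast at h1
    linear_combination h1
  obtain ⟨t, ht, htr, hχ, hθ⟩ := exists_tor (r := p) (e := m) hp cs H129.TorusChar.invC_F4 one_ne_zero hζr
    (g := AddEquiv.refl _) H129.DataF4.hA (π := id) (fun _ => rfl) eig hx
  have ht1 : t ≠ 1 := by
    rintro rfl
    have h3 := hχ (sr 2)
    rw [cX_one, lin_sr] at h3
    refine pow_val_ne_one hζr hζ1 ?_ h3.symm
    rw [ev_apply]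
    simp only [V, Fin.sum_univ_succ, Fin.sum_univ_zero]
    simp
    intro h2
    have h4 : ((2 : ℕ) : ZMod r) = 0 := by exact_mod_cast h2
    rw [ZMod.natCast_eq_zero_iff] at h4
    exact hr2 ((Nat.prime_dvd_prime_iff_eq hr Nat.prime_two).1 h4)
  have key : ∀ θ : ℕ, θ < chevF4.nroots → (∀ j : Fin 4, (j = 0 ∨ j = 1) → Orth4 chevF4 θ (chevF4.simple j) = true) →
      ∑ j, vec chevF4 4 θ j • V j = 0 → CT hp.inList θ (z * t * z⁻¹) := by
    intro θ hθ' hO hV
    refine CT.conj (ct_of_cX hp hθ' ht ?_) (ct_of_mem_Sup hp hθ' (J := J) (fun j hj => hO j hj) hz)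
    have h4 : lin (fun j => ev ((p ^ m : ℕ) : ZMod r) (V j)) (vec chevF4 4 θ) = 0 := by
      have h5 := congrArg (ev ((p ^ m : ℕ) : ZMod r)) hV
      rw [map_sum, map_zero] at h5
      rw [lin_apply, ← h5]
      exact Finset.sum_congr rfl fun j _ => (map_zsmul _ _ _).symm
    rw [hχ, h4, ZMod.val_zero, pow_zero]
  refine ⟨z * t * z⁻¹, ?_, ?_, hzσ t ht hθ, key 0 (by decide) orth0 vec0, key 24 (by decide) orth24 vec24⟩
  · rw [conj_pow, htr, mul_one, mul_inv_cancel]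
  · intro h1
    apply ht1
    have h2 := mul_inv_eq_one.1 h1
    exact mul_eq_left.1 h2

end Clo

/-! ### the finite group -/

section Fin

variable {F : Type u} [Field F]

/-- root elements -/
noncomputable def xe' (r : ℕ) (t : F) : ↥(chevF4.group F) := xs typeF4.inList r t

theorem v_order [CharP F 2] : ∃ v : ↥(chevF4.group F), orderOf v = 4 ∧ v = xe' 0 1 * xe' 24 1 := by
  have hD := typeF4.inList
  refine ⟨_, ?_, rfl⟩
  set v : ↥(chevF4.group F) := xe' 0 1 * xe' 24 1 with hv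
  have hv' : (v : GL chevF4.Idx F) = xG hD 0 1 * xG hD 24 1 := rfl
  have h2 : (2 : F) = 0 := by exact_mod_cast CharP.cast_eq_zero F 2
  have hneg : ∀ a : F, -a = a := fun a => by linear_combination (-a) * h2
  have hsq : ∀ (j : ℕ) (a : F), xG hD j a * xG hD j a = 1 := by
    intro j a
    rw [xG_add, ← two_mul, h2, zero_mul, xG_zero]
  -- the commutator
  obtain ⟨c, hc, e⟩ : ∃ c : F, c ≠ 0 ∧ xG hD 0 1 * xG hD 24 1 = xG hD 24 1 * xG hD 0 1 * xG hD 1 c := by
    have key : ∀ C : ℤ, chevF4.commTerms 24 0 = [(1, C, 1, 1)] →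
        xG hD 0 (1 : F) * xG hD 24 1 = xG hD 24 1 * xG hD 0 1 * xG hD 1 ((C : F) * (-1) ^ 1 * 1 ^ 1) := by
      intro C hC
      have e : xG hD 0 (1 : F) * xG hD 24 1 = xG hD 24 1 * xG hD 0 1 * wordG hD (chevF4.commWord F 24 0 1 1) := by
        apply Units.ext
        rw [Units.val_mul, Units.val_mul, Units.val_mul, coe_xG, coe_xG, coe_wordG]
        exact Cfsg.Agent.S1025.result chevF4 hD 24 0 (by decide) (by decide) (by decide) (by decide +kernel) 1 1
      rw [commWord, hC, List.map_cons, List.map_nil, wordG_cons, wordG_nil, mul_one] at e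
      exact e
    rcases comm0 with h | h
    · exact ⟨_, by simp, key 1 h⟩
    · exact ⟨_, by simp, key (-1) h⟩
  have hvv : v * v = ⟨xG hD 1 c, xG_mem_group hD _ _⟩ := by
    apply Subtype.ext
    rw [Subgroup.coe_mul, hv']
    calc xG hD 0 1 * xG hD 24 1 * (xG hD 0 1 * xG hD 24 1)
        = xG hD 0 1 * xG hD 24 1 * (xG hD 24 1 * xG hD 0 1 * xG hD 1 c) := by rw [← e]
      _ = xG hD 0 1 * (xG hD 24 1 * xG hD 24 1) * xG hD 0 1 * xG hD 1 c := by group
      _ = xG hD 1 c := by rw [hsq, mul_one, hsq, one_mul]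
  have h4 : v ^ 4 = 1 := by
    have h5 : v ^ 4 = (v * v) * (v * v) := by rw [← sq, ← sq, ← pow_mul]
    rw [h5, hvv]
    apply Subtype.ext
    rw [Subgroup.coe_mul]
    exact hsq 1 c
  have hv2 : v ^ 2 ≠ 1 := by
    rw [sq, hvv]
    intro h
    have h5 : xG hD 1 c = 1 := congrArg Subtype.val h
    rw [← xG_zero hD 1] at h5
    exact hc (xG_injective hD (by decide : 1 < chevF4.nroots) h5)
  have h6 : orderOf v ∣ 2 ^ 2 := orderOf_dvd_of_pow_eq_one h4
  obtain ⟨i, hi, hi2⟩ := (Nat.dvd_prime_pow Nat.prime_two).1 h6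
  interval_cases i
  · exfalso
    rw [pow_zero, orderOf_eq_one_iff] at hi2
    apply hv2
    rw [hi2, one_pow]
  · exfalso
    apply hv2
    rw [← orderOf_dvd_iff_pow_eq_one, hi2]
    norm_num
  · exact hi2

theorem exists_y [Finite F] [hc2 : CharP F 2] {r : ℕ} (hr : r.Prime) (hd : r ∣ Nat.card F ^ 2 + Nat.card F + 1) :
    ∃ y : ↥(chevF4.group F), orderOf y = 4 * r := by
  have hp := typeF4
  have : Fintype F := Fintype.ofFinite F
  obtain ⟨k, _, _, f, p, _, hcp, n, hk, -, hn0, hn⟩ := H378.TorFin.exists_closure F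
  have hpp : p.Prime := Fact.out
  have hcF : CharP F p := (f.charP_iff f.injective p).2 hcp
  obtain rfl : p = 2 := CharP.eq F hcF hc2
  have hr2 : r ≠ 2 := by
    rintro rfl
    rw [hn] at hd
    have h1 : 2 ∣ (2 ^ n) ^ 2 + 2 ^ n := dvd_add ((dvd_pow_self 2 hn0.ne').trans (dvd_pow_self _ (by norm_num)))
      (dvd_pow_self 2 hn0.ne')
    exact absurd ((Nat.dvd_add_right h1).1 hd) (by norm_num)
  obtain ⟨y, hy1, hy2, hy3, hy4, hy5⟩ := exists_k hk 2 hn0 hr hr2 (by rw [← hn]; exact hd)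
  obtain ⟨x, hx⟩ := H378.RootTor.mem_of_pow hp f 2 hn H129.TorusChar.invC_F4 one_ne_zero hy3 hy1
    (by simp)
  have hinj := emb_injective hp.inList f
  obtain ⟨v, hv, hve⟩ := v_order (F := F)
  have hfr : Fact r.Prime := ⟨hr⟩
  have hxo : orderOf x = r := by
    refine orderOf_eq_prime (hinj ?_) fun h1 => ?_
    · rw [map_pow, hx, hy1, map_one]
    · rw [h1, map_one] at hx
      exact hy2 hx.symm
  have hemb : ∀ (j : ℕ) (a : F), emb hp.inList f (xe' j a) = xs hp.inList j (f a) := by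
    intro j a
    apply Subtype.ext
    rw [coe_emb]
    exact glMap_xG hp.inList f j a
  have hcomm : Commute x v := by
    rw [hve]
    have h1 : ∀ j, CT hp.inList j y → Commute x (xe' j (1 : F)) := by
      intro j hj
      apply hinj
      rw [map_mul, map_mul, hx, hemb]
      exact (hj _).1
    exact (h1 0 hy4).mul_right (h1 24 hy5)
  refine ⟨v * x, ?_⟩
  rw [hcomm.symm.orderOf_mul_eq_mul_orderOf_of_coprime, hv, hxo]
  rw [hv, hxo]
  have : Nat.Coprime 2 r := (Nat.coprime_primes Nat.prime_two hr).2 (Ne.symm hr2)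
  exact Nat.Coprime.pow_left 2 this

end Fin

end Cfsg.Agent.H351.CovF4.EltY
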