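import Mathlib
import Cfsg.Agent.H727.GW.Isom
import Cfsg.Agent.H436.Ppd

/-!
# Elements of order 16 and `4 r` in small linear groups of characteristic 2 (helper351, for S2499)

* `pow_eq_one_of_finrank` : a 2-element in dimension `≤ 2 ^ b` has order dividing `2 ^ b`;
* `sq_eq_one_of_form` : in dimension 8, a 2-element of order dividing 4 commuting with an isometry of order `r`,
  `r` primitive of order 3, of a nondegenerate alternating form, is an involution.
-/

set_option autoImplicit false

namespace Cfsg.Agent.H351.CovF4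

open Module

section One

variable {K : Type*} [Field K] {V : Type*} [AddCommGroup V] [Module K V]

theorem sub_pow_end [CharP K 2] (A B : Module.End K V) (h : Commute A B) (n : ℕ) :
    (A - B) ^ 2 ^ n = A ^ 2 ^ n - B ^ 2 ^ n := by
  rcases subsingleton_or_nontrivial V with hV | hV
  · exact Subsingleton.elim _ _
  · have : CharP (Module.End K V) 2 := charP_of_injective_algebraMap (algebraMap K (Module.End K V)).injective 2
    have : Fact (Nat.Prime 2) := ⟨Nat.prime_two⟩
    exact sub_pow_expChar_pow_of_commute 2 n h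

theorem pow_eq_zero_of_finrank [FiniteDimensional K V] {N : Module.End K V} (hN : IsNilpotent N) :
    N ^ finrank K V = 0 := by
  have h1 := LinearMap.aeval_self_charpoly N
  rw [hN.charpoly_eq_X_pow_finrank] at h1
  simpa using h1

theorem pow_eq_one_of_finrank [FiniteDimensional K V] [CharP K 2] {A : Module.End K V} {a b : ℕ}
    (hA : A ^ 2 ^ a = 1) (hd : finrank K V ≤ 2 ^ b) : A ^ 2 ^ b = 1 := by
  have h1 : (A - 1) ^ 2 ^ a = 0 := by
    rw [sub_pow_end _ _ (Commute.one_right A), hA, one_pow, sub_self]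
  have h2 := pow_eq_zero_of_finrank (N := A - 1) ⟨_, h1⟩
  have h3 : (A - 1) ^ 2 ^ b = 0 := pow_eq_zero_of_le hd h2
  rw [sub_pow_end _ _ (Commute.one_right A), one_pow] at h3
  exact sub_eq_zero.1 h3

/-- a nilpotent map shrinks invariant subspaces -/
theorem map_lt {N : Module.End K V} (hN : IsNilpotent N) {W : Submodule K V} (hW : ∀ w ∈ W, N w ∈ W) (hne : W ≠ ⊥) :
    W.map N < W := by
  refine lt_of_le_of_ne (Submodule.map_le_iff_le_comap.2 hW) fun h => hne ?_
  obtain ⟨k, hk⟩ := hN
  have h1 : ∀ j, W.map (N ^ j) = W := by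
    intro j
    induction j with
    | zero => rw [pow_zero]; exact Submodule.map_id W
    | succ j ih => rw [pow_succ, Module.End.mul_eq_comp, Submodule.map_comp, h, ih]
  have h2 := h1 k
  rw [hk, Submodule.map_zero] at h2
  exact h2.symm

/-- if all invariant subspaces of `W` have dimension divisible by `c` and `dim W = 2 c`, then `N ^ 2 = 0` on `W` -/
theorem sq_zero [FiniteDimensional K V] {N : Module.End K V} (hN : IsNilpotent N) {c : ℕ} {W : Submodule K V}
    (hW : ∀ w ∈ W, N w ∈ W) (hd : finrank K W ≤ 2 * c) (h1 : c ∣ finrank K W) (h2 : c ∣ finrank K (W.map N))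
    (h3 : c ∣ finrank K ((W.map N).map N)) {w : V} (hw : w ∈ W) : N (N w) = 0 := by
  have h4 : ∀ w ∈ W.map N, N w ∈ W.map N := by
    rintro _ ⟨x, hx, rfl⟩
    exact ⟨N x, hW x hx, rfl⟩
  have h5 : (W.map N).map N = ⊥ := by
    by_contra hne
    have hne1 : W.map N ≠ ⊥ := by
      intro h
      rw [h, Submodule.map_bot] at hne
      exact hne rfl
    have hne0 : W ≠ ⊥ := by
      intro h
      rw [h, Submodule.map_bot] at hne1
      exact hne1 rfl
    have a1 := Submodule.finrank_lt_finrank_of_lt (map_lt hN hW hne0)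
    have a2 := Submodule.finrank_lt_finrank_of_lt (map_lt hN h4 hne1)
    have a3 : 0 < finrank K ((W.map N).map N) := by
      rw [Nat.pos_iff_ne_zero]
      intro h
      exact hne (Submodule.finrank_eq_zero.1 h)
    obtain ⟨x, hx⟩ := h1
    obtain ⟨y, hy⟩ := h2
    obtain ⟨z, hz⟩ := h3
    rw [hz] at a3
    rw [hy, hz] at a2
    rw [hx, hy] at a1
    rw [hx] at hd
    have hc : 0 < c := Nat.pos_of_ne_zero (by rintro rfl; simp at a3)
    have b1 := Nat.lt_of_mul_lt_mul_left a1
    have b2 := Nat.lt_of_mul_lt_mul_left a2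
    have b3 : 0 < z := Nat.pos_of_mul_pos_left a3 |> fun h => by
      rcases Nat.eq_zero_or_pos z with h0 | h0
      · rw [h0, mul_zero] at a3
        exact absurd a3 (lt_irrefl _)
      · exact h0
    have b4 : c * 3 ≤ c * x := Nat.mul_le_mul_left c (by omega)
    omega
  have h6 : N (N w) ∈ (W.map N).map N := ⟨N w, ⟨w, hw, rfl⟩, rfl⟩
  rw [h5] at h6
  exact h6

end One

section Free

variable {K : Type*} [Field K] [Finite K] {V : Type*} [AddCommGroup V] [Module K V] [FiniteDimensional K V]

open Cfsg.Agent.H436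

/-- an invariant subspace without fixed vectors -/
theorem dvd_finrank {e r : ℕ} (hr : Prim (Nat.card K) e r) {g : V →ₗ[K] V} (hg : g ^ r = 1) {W : Submodule K V}
    (hW : ∀ w ∈ W, g w ∈ W) (hfix : ∀ w ∈ W, g w = w → w = 0) : e ∣ finrank K W := by
  have hrp := hr.prime
  have := Fact.mk hrp
  have : Finite V := Module.finite_of_finite K
  have hW' : ∀ k : ℕ, ∀ w ∈ W, (g ^ k) w ∈ W := by
    intro k
    induction k with
    | zero => intro w hw; exact hw
    | succ k ih => intro w hw; rw [pow_succ', Module.End.mul_apply]; exact hW _ (ih w hw)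
  have hr1 : ∀ v, (g ^ (r - 1)) (g v) = v := by
    intro v
    rw [← Module.End.mul_apply, ← pow_succ, Nat.sub_add_cancel hrp.one_le, hg]
    rfl
  have hr2 : ∀ v, g ((g ^ (r - 1)) v) = v := by
    intro v
    rw [← Module.End.mul_apply, ← pow_succ', Nat.sub_add_cancel hrp.one_le, hg]
    rfl
  let σ : Equiv.Perm W :=
    { toFun := fun w => ⟨g w, hW w w.2⟩
      invFun := fun w => ⟨(g ^ (r - 1)) w, hW' _ w w.2⟩
      left_inv := fun w => Subtype.ext (hr1 w)
      right_inv := fun w => Subtype.ext (hr2 w) }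
  have hσ : ∀ (k : ℕ) (w : W), (((σ ^ k) w : W) : V) = (g ^ k) w := by
    intro k
    induction k with
    | zero => intro w; rfl
    | succ k ih =>
      intro w
      rw [pow_succ', pow_succ', Equiv.Perm.mul_apply, Module.End.mul_apply, ← ih]
      rfl
  have hσr : σ ^ r = 1 := by
    ext w
    rw [hσ, hg]
    rfl
  have hP : IsPGroup r (Subgroup.zpowers σ) := by
    by_cases h : σ = 1
    · refine IsPGroup.of_card (n := 0) ?_
      rw [Nat.card_zpowers, h, orderOf_one, pow_zero]
    · refine IsPGroup.of_card (n := 1) ?_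
      rw [Nat.card_zpowers, pow_one]
      exact orderOf_eq_prime hσr h
  have h1 := hP.card_modEq_card_fixedPoints W
  have h2 : MulAction.fixedPoints (Subgroup.zpowers σ) W = {0} := by
    ext w
    rw [MulAction.mem_fixedPoints, Set.mem_singleton_iff]
    constructor
    · intro h
      have h3 := h ⟨σ, Subgroup.mem_zpowers σ⟩
      have h4 : g w = w := congrArg Subtype.val h3
      exact Subtype.ext (hfix w w.2 h4)
    · rintro rfl ⟨τ, k, rfl⟩
      have h5 : σ • (0 : W) = 0 := Subtype.ext (map_zero g)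
      exact smul_eq_self_of_mem_zpowers (y := σ) ⟨k, rfl⟩ h5
  have h6 : Nat.card ↑({0} : Set W) = 1 := by
    rw [Nat.card_coe_set_eq, Set.ncard_singleton]
  rw [h2, h6, Module.natCard_eq_pow_finrank (K := K) (V := W)] at h1
  rw [← hr.dvd_iff]
  exact (Nat.modEq_iff_dvd' (Nat.one_le_pow _ _ Nat.card_pos)).1 h1.symm

/-- **No elements of order `4 r`.** -/
theorem sq_eq_one_of_form [CharP K 2] {r : ℕ} (hr : Prim (Nat.card K) 3 r) (hV : finrank K V = 8)
    (B : LinearMap.BilinForm K V) (hB : ∀ x, B x x = 0) (hnd : ∀ x, (∀ y, B x y = 0) → x = 0)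
    {g u : Module.End K V} (hgB : ∀ x y, B (g x) (g y) = B x y) (hgr : g ^ r = 1) (hg1 : g ≠ 1) (hu : u ^ 4 = 1)
    (hc : Commute g u) : u ^ 2 = 1 := by
  have hrp := hr.prime
  have hr2 : r ≠ 2 := by
    rintro rfl
    have := Fintype.ofFinite K
    obtain ⟨n, -, h⟩ := FiniteField.card K 2
    apply hr.not_dvd
    rw [Nat.card_eq_fintype_card, h]
    exact dvd_pow_self 2 n.pos.ne'
  have hr1 : ((r : ℕ) : K) = 1 := by
    obtain ⟨k, hk⟩ := hrp.odd_of_ne_two hr2
    rw [hk]
    push_cast
    rw [show (2 : K) = 0 from CharTwo.two_eq_zero, zero_mul, zero_add]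
  set N : Module.End K V := u - 1 with hNdef
  have hNg : ∀ v, N (g v) = g (N v) := by
    intro v
    have := congrArg (fun f : Module.End K V => f v) hc.eq
    simp only [Module.End.mul_apply] at this
    rw [hNdef, LinearMap.sub_apply, LinearMap.sub_apply, map_sub, this]
    rfl
  have hN4 : N ^ 4 = 0 := by
    have := sub_pow_end u 1 (Commute.one_right u) 2
    norm_num at this
    rw [hNdef, this, hu, sub_self]
  have hNil : IsNilpotent N := ⟨4, hN4⟩
  -- the decomposition
  let e : Module.End K V := ∑ k ∈ Finset.range r, g ^ k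
  have hea : ∀ v, e v = ∑ k ∈ Finset.range r, (g ^ k) v := fun v => by
    show (∑ k ∈ Finset.range r, g ^ k) v = _
    rw [LinearMap.sum_apply]
  have hshift : ∀ v, ∑ k ∈ Finset.range r, (g ^ (k + 1)) v = ∑ k ∈ Finset.range r, (g ^ k) v := by
    intro v
    have h2 := Finset.sum_range_succ' (fun k => (g ^ k) v) r
    have h3 := Finset.sum_range_succ (fun k => (g ^ k) v) r
    rw [h3] at h2
    simp only [hgr, pow_zero] at h2
    exact (add_right_cancel h2).symm
  have hge : ∀ v, g (e v) = e v := by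
    intro v
    rw [hea, map_sum, ← hshift v]
    refine Finset.sum_congr rfl fun k _ => ?_
    rw [pow_succ', Module.End.mul_apply]
  have heg : ∀ v, e (g v) = e v := by
    intro v
    rw [hea, hea, ← hshift v]
    refine Finset.sum_congr rfl fun k _ => ?_
    rw [pow_succ, Module.End.mul_apply]
  have hfk : ∀ v, g v = v → ∀ k : ℕ, (g ^ k) v = v := by
    intro v hv k
    induction k with
    | zero => rfl
    | succ k ih => rw [pow_succ, Module.End.mul_apply, hv, ih]
  have hefix : ∀ v, g v = v → e v = v := by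
    intro v hv
    rw [hea, Finset.sum_congr rfl fun k _ => hfk v hv k, Finset.sum_const, Finset.card_range,
      ← Nat.cast_smul_eq_nsmul K, hr1, one_smul]
  have hNe : ∀ v, N (e v) = e (N v) := by
    intro v
    have hk : ∀ k : ℕ, ∀ v, N ((g ^ k) v) = (g ^ k) (N v) := by
      intro k
      induction k with
      | zero => intro v; rfl
      | succ k ih => intro v; rw [pow_succ', Module.End.mul_apply, Module.End.mul_apply, hNg, ih]
    rw [hea, hea, map_sum]
    exact Finset.sum_congr rfl fun k _ => hk k v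
  let V0 : Submodule K V := LinearMap.ker (g - 1)
  let V1 : Submodule K V := LinearMap.ker e
  have hV0 : ∀ v, v ∈ V0 ↔ g v = v := fun v => by
    rw [LinearMap.mem_ker, LinearMap.sub_apply, sub_eq_zero]
    rfl
  have hV1 : ∀ v, v ∈ V1 ↔ e v = 0 := fun v => LinearMap.mem_ker
  have hcompl : IsCompl V0 V1 := by
    constructor
    · rw [Submodule.disjoint_def]
      intro v h0 h1
      rw [← hefix v ((hV0 v).1 h0)]
      exact (hV1 v).1 h1
    · rw [codisjoint_iff, eq_top_iff]
      intro v _
      rw [Submodule.mem_sup]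
      refine ⟨e v, (hV0 _).2 (hge v), v - e v, (hV1 _).2 ?_, by abel⟩
      rw [map_sub, hefix (e v) (hge v), sub_self]
  have hdim : finrank K V0 + finrank K V1 = 8 := by
    rw [← hV]
    exact Submodule.finrank_add_eq_of_isCompl hcompl
  have hN0 : ∀ w ∈ V0, N w ∈ V0 := by
    intro w hw
    rw [hV0] at hw ⊢
    rw [← hNg, hw]
  have hN1 : ∀ w ∈ V1, N w ∈ V1 := by
    intro w hw
    rw [hV1] at hw ⊢
    rw [← hNe, hw, map_zero]
  have hg1' : ∀ w ∈ V1, g w ∈ V1 := by
    intro w hw
    rw [hV1] at hw ⊢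
    rw [heg, hw]
  have hfree : ∀ w ∈ V1, g w = w → w = 0 := by
    intro w hw h
    rw [← hefix w h]
    exact (hV1 w).1 hw
  have h1 : 3 ∣ finrank K V1 := dvd_finrank hr hgr hg1' hfree
  have hle1 : V1.map N ≤ V1 := Submodule.map_le_iff_le_comap.2 hN1
  have hgm : ∀ w ∈ V1.map N, g w ∈ V1.map N := by
    rintro _ ⟨x, hx, rfl⟩
    exact ⟨g x, hg1' x hx, hNg x⟩
  have h2 : 3 ∣ finrank K (V1.map N) := dvd_finrank hr hgr hgm fun w hw => hfree w (hle1 hw)
  have h3 : 3 ∣ finrank K ((V1.map N).map N) := by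
    refine dvd_finrank hr hgr ?_ fun w hw => hfree w ?_
    · rintro _ ⟨x, hx, rfl⟩
      exact ⟨g x, hgm x hx, hNg x⟩
    · obtain ⟨x, hx, rfl⟩ := hw
      exact hN1 x (hle1 hx)
  -- the form
  have heven : Even (finrank K V0) := by
    refine Cfsg.Agent.H727.GW.even_finrank _ V0 (B.restrict V0) (fun x => hB x) ?_ rfl
    intro x hx
    apply Subtype.ext
    apply hnd
    intro y
    have hxg : g (x : V) = x := (hV0 _).1 x.2
    have hk : ∀ k : ℕ, ∀ z, B x ((g ^ k) z) = B x z := by
      intro k
      induction k with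
      | zero => intro z; rfl
      | succ k ih =>
        intro z
        rw [pow_succ', Module.End.mul_apply]
        conv_lhs => rw [← hxg]
        rw [hgB, ih]
    have hz : ∀ z, B x (e z) = B x z := by
      intro z
      rw [hea, map_sum, Finset.sum_congr rfl fun k _ => hk k z, Finset.sum_const, Finset.card_range,
        nsmul_eq_mul, hr1, one_mul]
    rw [← hz]
    exact hx ⟨e y, (hV0 _).2 (hge y)⟩
  have hne : finrank K V1 ≠ 0 := by
    intro h
    apply hg1
    have hbot : V1 = ⊥ := Submodule.finrank_eq_zero.1 h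
    ext v
    have h4 : v - e v ∈ V1 := (hV1 _).2 (by rw [map_sub, hefix (e v) (hge v), sub_self])
    rw [hbot, Submodule.mem_bot, sub_eq_zero] at h4
    rw [h4, hge]
    rfl
  obtain ⟨d0, hd0⟩ := heven
  have h6 : finrank K V1 = 6 := by omega
  have h7 : finrank K V0 = 2 := by omega
  have hz1 : ∀ w ∈ V1, N (N w) = 0 := fun w hw => sq_zero hNil hN1 (c := 3) (by omega) h1 h2 h3 hw
  have hz0 : ∀ w ∈ V0, N (N w) = 0 := fun w hw =>
    sq_zero hNil hN0 (c := 1) (by omega) (one_dvd _) (one_dvd _) (one_dvd _) hw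
  have hN2 : N ^ 2 = 0 := by
    ext v
    have h4 : v = e v + (v - e v) := by abel
    rw [pow_two, Module.End.mul_apply, h4, map_add, map_add, hz0 _ ((hV0 _).2 (hge v)),
      hz1 _ ((hV1 _).2 (by rw [map_sub, hefix (e v) (hge v), sub_self])), add_zero]
    rfl
  have h8 := sub_pow_end u 1 (Commute.one_right u) 1
  norm_num at h8
  rw [← hNdef, hN2] at h8
  exact (sub_eq_zero.1 h8.symm)

end Free

end Cfsg.Agent.H351.CovF4
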