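import Cfsg.Agent.H351.CovF4.Lin
import Cfsg.Agent.OrdDiv.Main

/-!
# Elements of order 16 and `4 r` in groups of small Lie rank in characteristic 2 (helper351, for S2499)
-/

set_option autoImplicit false

namespace Cfsg.Agent.H351.CovF4

open Module Cfsg Cfsg.Agent.H436

theorem exists_pow_order {G : Type*} [Group G] {a : G} {n : ℕ} (hn : n ∣ orderOf a) (h0 : orderOf a ≠ 0) :
    ∃ k, orderOf (a ^ k) = n := by
  obtain ⟨k, hk⟩ := hn
  have hk0 : k ≠ 0 := by rintro rfl; exact h0 (by rw [hk, mul_zero])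
  refine ⟨k, ?_⟩
  rw [orderOf_pow_of_dvd hk0 (Dvd.intro_left _ hk.symm), hk, Nat.mul_div_cancel _ (Nat.pos_of_ne_zero hk0)]

section Abs

variable {K : Type*} [Field K] [CharP K 2] {V : Type*} [AddCommGroup V] [Module K V] [FiniteDimensional K V]
  {L S : Type*} [Group L] [Finite L] [Group S]

/-- the exponent of a Sylow 2-subgroup -/
theorem not_dvd_of_end (ρ : L →* Module.End K V) (hρ : Function.Injective ρ) {b : ℕ} (hd : finrank K V ≤ 2 ^ b)
    (π : L →* S) (hπ : Function.Surjective π) (x : S) : ¬ 2 ^ (b + 1) ∣ orderOf x := by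
  intro h
  obtain ⟨l, rfl⟩ := hπ x
  obtain ⟨k, hk⟩ := exists_pow_order (h.trans (orderOf_map_dvd π l)) (orderOf_pos l).ne'
  have h1 : (ρ (l ^ k)) ^ 2 ^ (b + 1) = 1 := by
    rw [← map_pow, ← hk, pow_orderOf_eq_one, map_one]
  have h2 := pow_eq_one_of_finrank h1 hd
  rw [← map_pow] at h2
  have h3 : (l ^ k) ^ 2 ^ b = 1 := hρ (h2.trans (map_one ρ).symm)
  have h4 := orderOf_dvd_of_pow_eq_one h3
  rw [hk] at h4
  have h5 := Nat.le_of_dvd (by positivity) h4
  have h6 : 2 ^ b < 2 ^ (b + 1) := Nat.pow_lt_pow_right (by norm_num) (by omega)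
  omega

/-- elements of order `4 r` -/
theorem not_dvd_of_form [Finite K] {r : ℕ} (hr : Prim (Nat.card K) 3 r) (hV : finrank K V = 8)
    (B : LinearMap.BilinForm K V) (hB : ∀ x, B x x = 0) (hnd : ∀ x, (∀ y, B x y = 0) → x = 0)
    (ρ : L →* Module.End K V) (hρ : Function.Injective ρ) (hρB : ∀ l x y, B (ρ l x) (ρ l y) = B x y)
    (π : L →* S) (hπ : Function.Surjective π) (x : S) : ¬ 4 * r ∣ orderOf x := by
  intro h
  obtain ⟨l, rfl⟩ := hπ x
  have hl := h.trans (orderOf_map_dvd π l)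
  obtain ⟨k, hk⟩ := exists_pow_order ((Dvd.intro _ rfl).trans hl) (orderOf_pos l).ne'
  obtain ⟨j, hj⟩ := exists_pow_order ((Dvd.intro_left _ rfl).trans hl) (orderOf_pos l).ne'
  have h1 : ρ (l ^ k) ^ 4 = 1 := by rw [← map_pow, ← hk, pow_orderOf_eq_one, map_one]
  have h2 : ρ (l ^ j) ^ r = 1 := by rw [← map_pow, ← hj, pow_orderOf_eq_one, map_one]
  have h3 : ρ (l ^ j) ≠ 1 := by
    intro h3
    have h4 : l ^ j = 1 := hρ (h3.trans (map_one ρ).symm)
    rw [h4, orderOf_one] at hj
    exact hr.prime.one_lt.ne hj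
  have h4 : Commute (ρ (l ^ j)) (ρ (l ^ k)) := by
    rw [map_pow, map_pow]
    exact (Commute.refl (ρ l)).pow_pow j k
  have h5 := sq_eq_one_of_form hr hV B hB hnd (hρB _) h2 h3 h1 h4
  rw [← map_pow] at h5
  have h6 := orderOf_dvd_of_pow_eq_one (hρ (h5.trans (map_one ρ).symm))
  rw [hk] at h6
  exact absurd (Nat.le_of_dvd (by norm_num) h6) (by norm_num)

end Abs

/-! ### the groups -/

section Groups

variable {F : Type} [Field F]

theorem finrank_fun (ι : Type) [Fintype ι] : finrank F (ι → F) = Fintype.card ι := Module.finrank_fintype_fun_eq_card F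

/-- matrices acting on columns -/
def mv (ι : Type) [Fintype ι] [DecidableEq ι] : Matrix ι ι F →* Module.End F (ι → F) where
  toFun := fun A => Matrix.toLin' A
  map_one' := Matrix.toLin'_one
  map_mul' := fun A B => Matrix.toLin'_mul A B

theorem mv_injective (ι : Type) [Fintype ι] [DecidableEq ι] : Function.Injective (mv (F := F) ι) :=
  fun _ _ h => Matrix.toLin'.injective h

/-- the special linear group -/
def slMat (ι : Type) [Fintype ι] [DecidableEq ι] : Matrix.SpecialLinearGroup ι F →* Matrix ι ι F where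
  toFun := fun A => (A : Matrix ι ι F)
  map_one' := rfl
  map_mul' := fun _ _ => rfl

theorem quot_surjective {L S : Type} [Group L] [Group S] (e : S ≃* L ⧸ Subgroup.center L) :
    Function.Surjective (e.symm.toMonoidHom.comp (QuotientGroup.mk' (Subgroup.center L))) :=
  e.symm.surjective.comp (QuotientGroup.mk'_surjective _)

variable [Fintype F] [CharP F 2]

/-- `L₂(Q)` -/
theorem psl2_four {S : Type} [Group S] (e : S ≃* Matrix.ProjectiveSpecialLinearGroup (Fin 2) F) (x : S) :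
    ¬ 4 ∣ orderOf x := by
  classical
  have h := not_dvd_of_end (S := S) ((mv (F := F) (Fin 2)).comp (slMat (Fin 2)))
    ((mv_injective (Fin 2)).comp fun A B h => Subtype.ext h) (b := 1) (by rw [finrank_fun]; rfl)
    _ (quot_surjective e) x
  exact h

/-- `PSp₂ₘ(Q)` -/
theorem psp_pow {m b : ℕ} (hm : 2 * m ≤ 2 ^ b) {S : Type} [Group S] (e : S ≃* PSp m F) (x : S) :
    ¬ 2 ^ (b + 1) ∣ orderOf x := by
  classical
  exact not_dvd_of_end (S := S) ((mv (F := F) (Fin m ⊕ Fin m)).comp (Matrix.symplecticGroup (Fin m) F).subtype)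
    ((mv_injective (Fin m ⊕ Fin m)).comp fun A B h => Subtype.ext h) (b := b)
    (by rw [finrank_fun, Fintype.card_sum, Fintype.card_fin]; omega)
    _ (quot_surjective e) x

/-- `Sz(Q)` -/
theorem sz_eight {S : Type} [Group S] {θ : ℕ} (e : S ≃* ↥(Lie.Sz F θ)) (x : S) : ¬ 8 ∣ orderOf x := by
  classical
  have h := not_dvd_of_end (S := S) ((mv (F := F) (Fin 4)).comp ((Units.coeHom _).comp (Lie.Sz F θ).subtype))
    ((mv_injective (Fin 4)).comp fun A B h => Subtype.ext (Units.ext h)) (b := 2)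
    (by rw [finrank_fun]; rfl) e.symm.toMonoidHom e.symm.surjective x
  exact h

/-- `PSp₈(Q)`, order `4 r` -/
theorem psp4_four {r : ℕ} (hr : Prim (Fintype.card F) 3 r) {S : Type} [Group S] (e : S ≃* PSp 4 F) (x : S) :
    ¬ 4 * r ∣ orderOf x := by
  classical
  rw [← Nat.card_eq_fintype_card] at hr
  let J : Matrix (Fin 4 ⊕ Fin 4) (Fin 4 ⊕ Fin 4) F := Matrix.J (Fin 4) F
  have hJ : IsUnit J.det := Matrix.isUnit_det_J (Fin 4) F
  refine not_dvd_of_form (S := S) hr (by rw [finrank_fun]; rfl) (Matrix.toBilin' J) ?_ ?_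
    ((mv (F := F) (Fin 4 ⊕ Fin 4)).comp (Matrix.symplecticGroup (Fin 4) F).subtype)
    ((mv_injective (Fin 4 ⊕ Fin 4)).comp fun A B h => Subtype.ext h) ?_
    _ (quot_surjective e) x
  · intro v
    rw [Matrix.toBilin'_apply']
    show v ⬝ᵥ (Matrix.fromBlocks 0 (-1) 1 0).mulVec v = 0
    rw [Matrix.fromBlocks_mulVec]
    simp only [Matrix.zero_mulVec, zero_add, Matrix.one_mulVec, add_zero, Matrix.neg_mulVec]
    simp only [dotProduct, Fintype.sum_sum_type, Sum.elim_inl, Sum.elim_inr, Pi.neg_apply, Function.comp_apply, mul_neg,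
      Finset.sum_neg_distrib]
    rw [neg_add_eq_zero]
    exact Finset.sum_congr rfl fun i _ => mul_comm _ _
  · intro v hv
    have h1 : Matrix.vecMul v J = 0 := by
      funext i
      have := hv (Pi.single i 1)
      rw [Matrix.toBilin'_apply', Matrix.dotProduct_mulVec] at this
      simpa using this
    have h2 : Matrix.vecMul (Matrix.vecMul v J) J⁻¹ = v := by
      rw [Matrix.vecMul_vecMul, Matrix.mul_nonsing_inv _ hJ, Matrix.vecMul_one]
    rw [← h2, h1, Matrix.zero_vecMul]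
  · intro l v w
    have hl := (SymplecticGroup.mem_iff').1 l.2
    show Matrix.toBilin' J (Matrix.toLin' (l : Matrix _ _ F) v) (Matrix.toLin' (l : Matrix _ _ F) w) = _
    rw [Matrix.toBilin'_apply', Matrix.toBilin'_apply', Matrix.toLin'_apply, Matrix.toLin'_apply,
      Matrix.dotProduct_mulVec, Matrix.vecMul_mulVec, Matrix.dotProduct_mulVec, Matrix.vecMul_vecMul,
      ← Matrix.dotProduct_mulVec]
    exact congrArg (fun M : Matrix _ _ F => v ⬝ᵥ M.mulVec w) hl

end Groups

end Cfsg.Agent.H351.CovF4
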