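import Cfsg.Agent.H351.CovF4.LinKill
import Cfsg.Agent.H179.OutMinusMain

/-!
# Extensions of `PΩ₈⁻(q)` by a group of order 2, `q` even (helper351, for S2499)

`omega_kill` : `H` with a normal subgroup `S` of index dividing 2, `S` isomorphic to `PΩ₈⁻(q)`, `C_H(S) = 1`: `H` has no
elements of order divisible by 16 or by `4 r`, `r` primitive of order 3.
-/

set_option autoImplicit false

namespace Cfsg.Agent.H351.CovF4

open QuadraticMap Cfsg.Agent.LieClassical.OrthCore Cfsg.Agent.LieClassical.OrthTrans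
  Cfsg.Agent.LieClassical.OrthSimple Cfsg.Agent.ClassicalGeometry.OrthSemi
  Cfsg.Agent.ClassicalGeometry.OrthSemiCount Cfsg.Agent.ClassicalGeometry.OrthAut1
  Cfsg.Agent.ClassicalGeometry.OrthSemiForms Cfsg.Agent.LieClassical.OrthForms
  Cfsg.Agent.H989.OutOrth.Abstract Cfsg.Agent.H989.OutOrth.Basic Cfsg.Agent.H989.OutOrth.Forms
  Cfsg.Agent.H179.OutMinus Cfsg.Agent.H179.OutMinusMain

variable {F : Type} [Field F] [Fintype F] {f : ℕ}

/-- the reflection induces an outer automorphism -/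
theorem out_rf_ne (hf : 1 ≤ f) (hF : Fintype.card F = 2 ^ f) {m : ℕ} (hm : 4 ≤ m) {a b : F}
    (hab : ∀ z₁ z₂ : F, z₁ ^ 2 + a * z₁ * z₂ + b * z₂ ^ 2 = 0 → z₁ = 0 ∧ z₂ = 0)
    (hG : Good (minusForm (m - 1) F a b)) : ∃ (v : (Fin (m - 1) ⊕ Fin (m - 1)) ⊕ Fin 2 → F)
      (hv : minusForm (m - 1) F a b v ≠ 0), out _ (rf v hv) ≠ 1 := by
  have hp : Fact (Nat.Prime 2) := ⟨Nat.prime_two⟩
  obtain ⟨hD, -⟩ := cards hf hF hm hab hG (by rw [if_pos rfl])
  have hchar : CharP F 2 := charP_of_card hF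
  have hsq : ∀ c : F, IsSquare c := fun c =>
    FiniteField.isSquare_of_char_two (ringChar.eq_iff.2 hchar) c
  set v := v0 a b (m - 1) with hvdef
  have hv : minusForm (m - 1) F a b v ≠ 0 := form_v0_ne hab (m - 1)
  have hall : ∀ (w) (hw : minusForm (m - 1) F a b w ≠ 0),
      out _ (rf w hw) = out _ (rf v hv) := by
    intro w hw
    obtain ⟨s, hs⟩ := hsq (minusForm (m - 1) F a b w / minusForm (m - 1) F a b v)
    exact (out_rf_of_square hG hv hw (s := s) (by rw [← hs, div_mul_cancel₀ _ hv])).symm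
  refine ⟨v, hv, ?_⟩
  intro h
  classical
  have h5 : Nat.card (D hG) ≤ ({1} : Finset (Cfsg.Out (P (minusForm (m - 1) F a b)))).card := by
    refine card_le_finset _ fun d hd => ?_
    rw [Finset.mem_singleton]
    rcases D_cases hG hv hall (δ0 := 1) (c0 := 1)
      ⟨one_ne_zero, fun _ _ => rfl, fun _ _ => rfl, fun _ => by rw [one_mul]; rfl⟩
      (fun c _ => Or.inl (hsq c)) hd with h6 | h6 | h6 | h6
    · exact h6
    · rw [h6, h]
    · rw [h6, map_one]
    · rw [h6, h, map_one, one_mul]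
  rw [hD, Finset.card_singleton] at h5
  omega

/-- in a cyclic group there is at most one involution -/
theorem eq_of_cyclic {C : Type*} [Group C] [Finite C] [IsCyclic C] {x r : C} (hx : x * x = 1) (hr : r * r = 1)
    (hr1 : r ≠ 1) : x = 1 ∨ x = r := by
  classical
  have := Fintype.ofFinite C
  by_contra hcon
  rw [not_or] at hcon
  have h1 := IsCyclic.card_pow_eq_one_le (α := C) (n := 2) (by norm_num)
  have h2 : ({1, r, x} : Finset C) ⊆ Finset.univ.filter fun a : C => a ^ 2 = 1 := by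
    intro y hy
    rw [Finset.mem_filter]
    refine ⟨Finset.mem_univ _, ?_⟩
    simp only [Finset.mem_insert, Finset.mem_singleton] at hy
    rcases hy with rfl | rfl | rfl
    · exact one_pow 2
    · rw [pow_two]; exact hr
    · rw [pow_two]; exact hx
  have h3 := (Finset.card_le_card h2).trans h1
  have h4 : ({1, r, x} : Finset C).card = 3 := by
    rw [Finset.card_eq_three]
    exact ⟨1, r, x, hr1.symm, (Ne.symm hcon.1), (Ne.symm hcon.2), rfl⟩
  omega

/-- an automorphism whose square is inner is induced by an isometry -/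
theorem exists_isometry (hf : 1 ≤ f) (hF : Fintype.card F = 2 ^ f) {m : ℕ} (hm : 4 ≤ m) {a b : F}
    (hab : ∀ z₁ z₂ : F, z₁ ^ 2 + a * z₁ * z₂ + b * z₂ ^ 2 = 0 → z₁ = 0 ∧ z₂ = 0)
    (hG : Good (minusForm (m - 1) F a b)) {α : MulAut (P (minusForm (m - 1) F a b))}
    (hα : α * α ∈ Cfsg.Inn (P (minusForm (m - 1) F a b))) :
    ∃ g : O (minusForm (m - 1) F a b), Psi _ (ofO _ g) = α := by
  have hp : Fact (Nat.Prime 2) := ⟨Nat.prime_two⟩
  obtain ⟨v, hv, hr1⟩ := out_rf_ne hf hF hm hab hG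
  obtain ⟨hcyc, hcard⟩ := char_two (p := 2) rfl hf hF hm hab hG
  have hfin : Finite (Cfsg.Out (P (minusForm (m - 1) F a b))) :=
    Nat.finite_of_card_ne_zero (by rw [hcard]; omega)
  have hr : out (minusForm (m - 1) F a b) (rf v hv) * out _ (rf v hv) = 1 := by
    rw [← map_mul, rf_mul_self, map_one]
  let x : Cfsg.Out (P (minusForm (m - 1) F a b)) := QuotientGroup.mk' (Cfsg.Inn _) α
  have hx : x * x = 1 := by
    show QuotientGroup.mk' (Cfsg.Inn _) α * QuotientGroup.mk' (Cfsg.Inn _) α = 1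
    rw [← map_mul, QuotientGroup.mk'_apply, QuotientGroup.eq_one_iff]
    exact hα
  have hinn : ∀ β ∈ Cfsg.Inn (P (minusForm (m - 1) F a b)), ∃ g : O (minusForm (m - 1) F a b),
      Psi _ (ofO _ g) = β := by
    rintro _ ⟨p, rfl⟩
    obtain ⟨g, rfl⟩ := QuotientGroup.mk_surjective p
    exact ⟨⟨g, E_le_O g.2⟩, Psi_ofO g⟩
  rcases eq_of_cyclic hx hr hr1 with h | h
  · apply hinn
    exact (QuotientGroup.eq_one_iff _).1 h
  · have h1 : α * (Psi _ (rf v hv))⁻¹ ∈ Cfsg.Inn (P (minusForm (m - 1) F a b)) := by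
      rw [← QuotientGroup.eq_one_iff, ← QuotientGroup.mk'_apply, map_mul, map_inv]
      exact mul_inv_eq_one.2 h
    obtain ⟨g, hg⟩ := hinn _ h1
    refine ⟨g * ⟨refl _ v hv, refl_mem_O hv⟩, ?_⟩
    rw [map_mul, map_mul, hg]
    show α * (Psi _ (rf v hv))⁻¹ * Psi _ (rf v hv) = α
    rw [inv_mul_cancel_right]

/-- isometries as linear maps -/
def endO {V : Type} [AddCommGroup V] [Module F V] (Q : QuadraticForm F V) : O Q →* Module.End F V where
  toFun := fun g => (g.1 : V →ₗ[F] V)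
  map_one' := rfl
  map_mul' := fun _ _ => rfl

omit [Fintype F] in
theorem endO_injective {V : Type} [AddCommGroup V] [Module F V] (Q : QuadraticForm F V) :
    Function.Injective (endO Q) := by
  intro g h e
  apply Subtype.ext
  apply LinearEquiv.toLinearMap_injective
  exact e

/-- **Extensions of `PΩ₈⁻(q)`.** -/
theorem omega_kill (hf : 1 ≤ f) (hF : Fintype.card F = 2 ^ f) {a b : F}
    (hab : ∀ z₁ z₂ : F, z₁ ^ 2 + a * z₁ * z₂ + b * z₂ ^ 2 = 0 → z₁ = 0 ∧ z₂ = 0) {H : Type} [Group H] (S : Subgroup H)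
    [hS : S.Normal] (hidx : ∀ h : H, h * h ∈ S) (hC : ∀ h : H, (∀ s ∈ S, h * s = s * h) → h = 1)
    (e : S ≃* Cfsg.POmega F (Cfsg.quadFormMinus (4 - 1) F a b)) (h : H) :
    ¬ 16 ∣ orderOf h ∧ ∀ r, Cfsg.Agent.H436.Prim (Fintype.card F) 3 r → ¬ 4 * r ∣ orderOf h := by
  classical
  have hp : Fact (Nat.Prime 2) := ⟨Nat.prime_two⟩
  have hchar : CharP F 2 := charP_of_card hF
  have hG : Good (minusForm (4 - 1) F a b) := good_minus (F := F) (m := 4 - 1) (by norm_num) a b hab
  let Q := minusForm (4 - 1) F a b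
  rw [← coe_minusForm] at e
  let e' : S ≃* P Q := e.trans (pomegaEquiv hG)
  let c : H →* MulAut S := MulAut.conjNormal
  have hc : Function.Injective c := by
    rw [← MonoidHom.ker_eq_bot_iff, eq_bot_iff]
    intro y hy
    rw [Subgroup.mem_bot]
    apply hC
    intro s hs
    have h1 := DFunLike.congr_fun (MonoidHom.mem_ker.1 hy) ⟨s, hs⟩
    have h2 := congrArg Subtype.val h1
    rw [MulAut.conjNormal_apply] at h2
    exact mul_inv_eq_iff_eq_mul.1 h2
  let β : H →* MulAut (P Q) := (MulAut.congr e').toMonoidHom.comp c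
  have hβ : Function.Injective β := (MulAut.congr e').injective.comp hc
  have hβS : ∀ s : S, β s = MulAut.conj (e' s) := by
    intro s
    ext y
    show e' (MulAut.conjNormal (s : H) (e'.symm y)) = e' s * y * (e' s)⁻¹
    have h1 : MulAut.conjNormal (s : H) (e'.symm y) = s * e'.symm y * s⁻¹ := by
      apply Subtype.ext
      rw [MulAut.conjNormal_apply]
      rfl
    rw [h1, map_mul, map_mul, map_inv, MulEquiv.apply_symm_apply]
  let π : O Q →* MulAut (P Q) := (Psi Q).comp (ofO Q)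
  have hπ : ∀ y : H, β y ∈ π.range := by
    intro y
    obtain ⟨g, hg⟩ := exists_isometry hf hF (le_refl 4) hab hG (α := β y) (by
      rw [← map_mul, hβS ⟨y * y, hidx y⟩]
      exact ⟨_, rfl⟩)
    exact ⟨g, hg⟩
  have hfinO : Finite (O Q) := by
    have : Finite (Module.End F ((Fin (4 - 1) ⊕ Fin (4 - 1)) ⊕ Fin 2 → F)) :=
      Finite.of_injective (fun g : Module.End F _ => (g : _ → _)) DFunLike.coe_injective
    exact Finite.of_injective _ (endO_injective Q)
  have hx : orderOf (⟨β h, hπ h⟩ : π.range) = orderOf h := by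
    rw [← Subgroup.orderOf_coe]
    exact orderOf_injective β hβ h
  have hV : Module.finrank F ((Fin (4 - 1) ⊕ Fin (4 - 1)) ⊕ Fin 2 → F) = 8 := by
    rw [finrank_fun]
    rfl
  rw [← hx]
  constructor
  · exact not_dvd_of_end (b := 3) (endO Q) (endO_injective Q) hV.le π.rangeRestrict π.rangeRestrict_surjective _
  · intro r hr
    rw [← Nat.card_eq_fintype_card] at hr
    refine not_dvd_of_form hr hV (polarBilin Q) ?_ ?_ (endO Q) (endO_injective Q) ?_ π.rangeRestrict
      π.rangeRestrict_surjective _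
    · intro x
      show polar Q x x = 0
      rw [polar_self, two_smul]
      exact CharTwo.add_self_eq_zero _
    · exact hG.nondeg
    · intro g x y
      show polar Q (g.1 x) (g.1 y) = polar Q x y
      rw [polar, polar, ← map_add, g.2, g.2, g.2]

end Cfsg.Agent.H351.CovF4
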