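import Cfsg.Agent.H351.F4Out.Elt
import Cfsg.Agent.H406.Cov.Node

/-!
# The regular unipotent element of `F₄(q)`, `q` even, and `³D₄(q)` (helper351, for S2499)

* `reg_reg` : `reg F` is regular; `reg_order_two` (F4Out/Elt) : its order is divisible by 16;
* `td4_kill` : no group containing a conjugate of `reg F` is isomorphic to `³D₄(q)`.
-/

set_option autoImplicit false

namespace Cfsg.Agent.H351.CovF4

open Cfsg Cfsg.Lie Cfsg.Agent.ChevalleyStructure.Elts Cfsg.Agent.ChevalleyStructure.RootVec
  Cfsg.Agent.ChevalleyStructure.RootVecTab Cfsg.Agent.H610.ChevRegular Cfsg.Agent.H610.OddRegLie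
  Cfsg.Agent.H351.F4Out.Elt Cfsg.Agent.H406.Cov

universe v

theorem inL : InList chevF4 := by unfold InList; simp

theorem s0 : chevF4.simple 0 = 33 := by decide +kernel
theorem s1 : chevF4.simple 1 = 27 := by decide +kernel
theorem s2 : chevF4.simple 2 = 25 := by decide +kernel
theorem s3 : chevF4.simple 3 = 24 := by decide +kernel
theorem rk : chevF4.rank = 4 := by decide +kernel

theorem coe_reg (F : Type v) [Field F] : ((reg F : ↥(chevF4.group F)) : GL chevF4.Idx F) =
    xG inL (chevF4.simple 0) 1 * (xG inL (chevF4.simple 1) 1 * (xG inL (chevF4.simple 2) 1 *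
      xG inL (chevF4.simple 3) 1)) := by
  apply Units.ext
  rw [reg, coe_uw, s0, s1, s2, s3]
  simp only [List.map_cons, List.map_nil, List.prod_cons, List.prod_nil, mul_one, Units.val_mul, coe_xG]

/-- the element `reg F` is regular -/
theorem reg_reg (F : Type v) [Field F] : Reg inL ((reg F : ↥(chevF4.group F)) : GL chevF4.Idx F) := by
  have hr : ∀ i, i < 4 → i < chevF4.rank := fun i hi => by rw [rk]; exact hi
  rw [coe_reg]
  constructor
  · have h : ∀ i, i < 4 → xG inL (chevF4.simple i) (1 : F) ∈ chevF4.posUnipotent F := fun i hi =>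
      xG_mem_posUnipotent inL (simple_pos (checked inL) (hr i hi)) _
    exact mul_mem (h 0 (by norm_num)) (mul_mem (h 1 (by norm_num)) (mul_mem (h 2 (by norm_num)) (h 3 (by norm_num))))
  · intro i hi
    refine ⟨1, one_ne_zero, ?_⟩
    have hi4 : i < 4 := by rwa [rk] at hi
    have key : ∀ j, j < 4 → Comp inL i (xG inL (chevF4.simple j) (1 : F)) (if j = i then 1 else 0) := by
      intro j hj
      split_ifs with h
      · rw [h]; exact comp_simple inL i 1
      · exact comp_simple_ne inL hi (hr j hj) h 1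
    have h := comp_mul inL hi (key 0 (by norm_num)) (comp_mul inL hi (key 1 (by norm_num))
      (comp_mul inL hi (key 2 (by norm_num)) (key 3 (by norm_num))))
    have e : ((if 0 = i then 1 else 0) + ((if 1 = i then 1 else 0) + ((if 2 = i then 1 else 0) +
        (if 3 = i then 1 else 0))) : F) = 1 := by
      interval_cases i <;> simp
    rwa [e] at h

/-- **`³D₄(q)`.** -/
theorem td4_kill {F : Type v} [Field F] [Fintype F] [CharP F 2] {G : Type*} [Group G] [Finite G]
    {φ : G →* ↥(chevF4.group F)} (hφ : Function.Injective φ) {w : G} {g : ↥(chevF4.group F)}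
    (hw : φ w = g * reg F * g⁻¹) {K : Type} [Field K] [Fintype K] (hK : Fintype.card K = Fintype.card F ^ 3)
    (hs : IsSimpleGroup G) (e : G ≃* ↥(twistedD4 K (Fintype.card F))) : False := by
  have h2 : Fact (Nat.Prime 2) := ⟨Nat.prime_two⟩
  have hq : IsPrimePow (Fintype.card F) := Fintype.isPrimePow_card_of_field
  have hchar : CharP K 2 := by
    obtain ⟨p, hp⟩ := CharP.exists K
    have hpp : p.Prime := CharP.char_is_prime K p
    obtain ⟨n, -, hn⟩ := FiniteField.card K p
    obtain ⟨m, -, hm⟩ := FiniteField.card F 2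
    rw [hK, hm] at hn
    have h3 : 2 ∣ p ^ (n : ℕ) := by
      rw [← hn, ← pow_mul]
      exact dvd_pow_self 2 (by have := m.pos; positivity)
    have h4 := (Nat.prime_dvd_prime_iff_eq Nat.prime_two hpp).1 (Nat.prime_two.dvd_of_dvd_pow h3)
    rw [h4]
    exact hp
  have hs' : IsSimpleGroup ↥(twistedD4 K (Fintype.card F)) := e.symm.isSimpleGroup
  have hfin : Finite ↥(twistedD4 K (Fintype.card F)) := Finite.of_injective e.symm e.symm.injective
  have hN : ND 2 ↥(twistedD4 K (Fintype.card F)) (Fintype.card F ^ 3) :=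
    nd_of_ftyped (Cfsg.Agent.H185.TypedTw.ftyped_3D4 K (p := 2) hq (by rw [Nat.card_eq_fintype_card, hK])) 1
  obtain ⟨P, t, c, ht, hc, hc3, hk⟩ := hN.of_equiv e.symm
  have hR := regD_of_reg (F := F) (p := 2) inL (reg_reg F)
  have h1 := hR.pow_mem hφ hw P ht
  have h5 := Nat.le_of_dvd (Nat.mul_pos hc (by have := Fintype.one_lt_card (α := F); omega)) (hk _ h1)
  have h6 : c * (Fintype.card F - 1) ≤ 3 * (Fintype.card F - 1) := Nat.mul_le_mul_right _ hc3
  have h7 := Fintype.one_lt_card (α := F)
  have h8 : Fintype.card F ^ 3 = Fintype.card F * (Fintype.card F * Fintype.card F) := by ring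
  rw [h8] at h5
  have h9 : 2 * 2 ≤ Fintype.card F * Fintype.card F := Nat.mul_le_mul (by omega) (by omega)
  have h10 : Fintype.card F * 4 ≤ Fintype.card F * (Fintype.card F * Fintype.card F) := Nat.mul_le_mul_left _ h9
  omega

end Cfsg.Agent.H351.CovF4
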